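import Cfsg.Agent.H3.Simple

/-!
Identifying a group with a projective special unitary group: both permute a common index set, on one
side through points, on the other through objects of any type on which the unitary group acts.
-/

set_option autoImplicit false

namespace Cfsg.Agent.H15.U35

section

variable {F : Type} [Field F] {n q : ℕ} {G α ι β : Type*} [Group G] [MulAction G α] [Finite ι]
  (m : SU n F q → β → β)

/-- Pairs inducing the same permutation of the indices. -/
def Compat (x : ι → α) (e : ι → β) (p : SU n F q × G) : Prop :=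
  ∀ j, ∃ i, p.2 • x j = x i ∧ m p.1 (e j) = e i

/-- If every unitary matrix has a partner, some matrix moves an object, and the orders agree, then
the group is the projective special unitary group. -/
theorem actIso [Fintype F] [Finite G] (hF : Fintype.card F = q ^ 2) (hn : 3 ≤ n)
    (h32 : ¬(n = 3 ∧ q = 2)) (hm1 : ∀ b, m 1 b = b) (hmul : ∀ g h b, m (g * h) b = m g (m h b))
    (x : ι → α) (e : ι → β) (hx : Function.Injective x)
    (hall : ∀ g : SU n F q, ∃ k : G, Compat m x e (g, k))
    (hne : ∃ (g : SU n F q) (j : ι), m g (e j) ≠ e j)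
    (hcard : Nat.card G = Nat.card (PSU n F q)) : Nonempty (G ≃* PSU n F q) := by
  have hinv : ∀ g b, m g⁻¹ (m g b) = b := fun g b => by rw [← hmul, inv_mul_cancel, hm1]
  let N : Subgroup (SU n F q) :=
    { carrier := {g | ∀ j, m g (e j) = e j}
      one_mem' := fun j => hm1 _
      mul_mem' := fun {a b} ha hb j => by rw [hmul, hb, ha]
      inv_mem' := fun {a} ha j => by conv_lhs => rw [← ha j, hinv] }
  haveI : N.Normal := ⟨fun g hg h j => by
    obtain ⟨k, hk⟩ := hall h⁻¹
    obtain ⟨i, -, hi⟩ := hk j
    rw [hmul, hmul, hi, hg i, ← hi, ← hmul, mul_inv_cancel, hm1]⟩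
  have hN : N ≤ Subgroup.center (SU n F q) :=
    (H3.normal_le_center_or_eq_top hF hn h32 N).resolve_right fun h => by
      obtain ⟨g, j, hg⟩ := hne
      exact hg ((h ▸ Subgroup.mem_top g : g ∈ N) j)
  let S : Subgroup (SU n F q × G) :=
    { carrier := {p | Compat m x e p}
      one_mem' := fun j => ⟨j, one_smul _ _, hm1 _⟩
      mul_mem' := fun {a b} ha hb j => by
        obtain ⟨i, h1, h2⟩ := hb j
        obtain ⟨k, h3, h4⟩ := ha i
        exact ⟨k, by rw [Prod.snd_mul, mul_smul, h1, h3], by rw [Prod.fst_mul, hmul, h2, h4]⟩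
      inv_mem' := fun {a} ha j => by
        choose f h1 h2 using ha
        have hf : Function.Injective f := fun u v h => hx (smul_left_cancel a.2 (by rw [h1, h1, h]))
        obtain ⟨i, rfl⟩ := Finite.surjective_of_injective hf j
        exact ⟨i, by rw [Prod.snd_inv, inv_smul_eq_iff, h1],
          by rw [Prod.fst_inv, ← h2 i, hinv]⟩ }
  set ρ : S →* G := (MonoidHom.snd (SU n F q) G).comp S.subtype with hρ
  set σ : S →* PSU n F q :=
    ((QuotientGroup.mk' (Subgroup.center (SU n F q))).comp (MonoidHom.fst (SU n F q) G)).comp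
      S.subtype with hσ
  have hker : ρ.ker ≤ σ.ker := fun p hp => by
    rw [MonoidHom.mem_ker] at hp ⊢
    refine (QuotientGroup.eq_one_iff (p.1.1)).2 (hN fun j => ?_)
    obtain ⟨i, h1, h2⟩ := p.2 j
    have h3 : p.1.2 = 1 := hp
    rw [h3, one_smul] at h1
    rw [h2, hx h1]
  set L : S ⧸ ρ.ker →* PSU n F q := QuotientGroup.lift ρ.ker σ hker with hL
  have hsurj : Function.Surjective L := fun y => by
    obtain ⟨g, rfl⟩ := QuotientGroup.mk'_surjective _ y
    obtain ⟨k, hk⟩ := hall g
    exact ⟨(⟨(g, k), hk⟩ : S), rfl⟩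
  have E := QuotientGroup.quotientKerEquivRange ρ
  haveI : Finite (S ⧸ ρ.ker) := Finite.of_equiv _ E.symm.toEquiv
  have h1 : Nat.card (S ⧸ ρ.ker) = Nat.card ρ.range := Nat.card_congr E.toEquiv
  have h2 : Nat.card (PSU n F q) ≤ Nat.card (S ⧸ ρ.ker) := Nat.card_le_card_of_surjective L hsurj
  have h3 : Nat.card ρ.range ≤ Nat.card G := Subgroup.card_le_card_group _
  have htop : ρ.range = ⊤ := Subgroup.eq_top_of_card_eq _ (by omega)
  have hbij : Function.Bijective L :=
    hsurj.bijective_of_nat_card_le (by omega)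
  exact ⟨((Subgroup.topEquiv.symm.trans (MulEquiv.subgroupCongr htop.symm)).trans E.symm).trans
    (MulEquiv.ofBijective L hbij)⟩

end

end Cfsg.Agent.H15.U35
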