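import Cfsg.Agent.H15.U35.ActIso
import Cfsg.Agent.H15.U35.Data
import Cfsg.Agent.H15.HSOrbits
import Cfsg.Agent.H14.U35.Attained
import Cfsg.Agent.H14.HSGraph

/-!
The stabiliser of one of the 352 vectors of a Higman–Sims configuration is `PSU(3, 5)`: it permutes
fifty lattice vectors as the unitary group permutes fifty sets of isotropic lines.
-/

set_option autoImplicit false

namespace Cfsg.Agent.H15.U35

open Matrix
open H14.U35 (setLines lineMap Induces setTo ctr tp)

/-- The stabiliser of the base configuration. -/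
abbrev hsPoint : Subgroup ↥Co0 := stab3 bW bV b352

/-- The `j`th of the fifty vectors, packed. -/
def xP (j : ℕ) : ℕ := fiftyCodes.getD j 0

theorem fifty_ok : ((List.range 50).all fun j => leechOk (unpack (xP j))) = true ∧
    fiftyCodes.length = 50 ∧ ∀ i < 50, ∀ j < 50, xP i = xP j → i = j := by decide +kernel

theorem fifty_lt : ((List.range 50).all fun j => Nat.blt (xP j) (2 ^ 96)) = true := by decide +kernel

/-- The fifty lattice vectors. -/
def X (j : Fin 50) : ↥leechLattice :=
  ofCode (xP j) (List.all_eq_true.1 fifty_ok.1 j (List.mem_range.2 j.isLt))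

theorem X_injective : Function.Injective X := fun i j h => by
  have hi := List.all_eq_true.1 fifty_lt i (List.mem_range.2 i.isLt)
  have hj := List.all_eq_true.1 fifty_lt j (List.mem_range.2 j.isLt)
  simp only [Nat.blt, Nat.ble_eq, Nat.succ_le_iff] at hi hj
  exact Fin.ext (fifty_ok.2.2 i i.isLt j j.isLt (vecOf_inj hi hj (congrArg Subtype.val h)))

/-- The test of the image of a vector under a generator. -/
noncomputable def imgOK (g : ℕ) : Bool :=
  let M := genMats.getD g ⟨[], []⟩
  let pc := packCols M.cols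
  checkImg pc cW cW && (checkImg pc cV cV && (checkImg pc c352 c352 &&
    (List.range 50).all fun j => Nat.blt (setTo g j) 50 && checkImg pc (xP j) (xP (setTo g j))))

theorem img_ok : (List.range 3).all imgOK = true := by decide +kernel

theorem genMats_ok : ∀ M ∈ genMats, M.ok = true := by
  simp only [genMats, List.forall_mem_cons]
  exact ⟨gen0_ok, gen1_ok, gen2_ok, fun _ h => absurd h List.not_mem_nil⟩

theorem genMats_length : genMats.length = 3 := by decide +kernel

theorem exists_gen {g : ℕ} (hg : g < 3) :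
    ∃ k : hsPoint, ∀ j i : Fin 50, (i : ℕ) = setTo g j → k • X j = X i := by
  have hm : genMats.getD g (⟨[], []⟩ : Mat) ∈ genMats := getD_mem (by rw [genMats_length]; exact hg)
  have hok := genMats_ok _ hm
  have h := List.all_eq_true.1 img_ok g (List.mem_range.2 hg)
  simp only [imgOK, Bool.and_eq_true, List.all_eq_true, List.mem_range] at h
  obtain ⟨hW, hV, hX, hall⟩ := h
  refine ⟨⟨matAut _ hok, ⟨smul_eq_self_of_check hok hW (ofCode_val _ _),
    smul_eq_self_of_check hok hV (ofCode_val _ _)⟩,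
    smul_eq_self_of_check hok hX (ofCode_val _ _)⟩, fun j i hi => Subtype.ext ?_⟩
  show (matAut _ hok • X j : ↥leechLattice).1 = vecOf (xP i)
  rw [hi]
  exact smul_eq_of_check hok (hall j j.isLt).2 (ofCode_val _ _)

section

variable {F : Type} [Field F] [Fintype F] {I : F}

/-- The image of a family of lines. -/
def famMap (g : SU 3 F 5) (S : Set (Submodule F (Fin 3 → F))) : Set (Submodule F (Fin 3 → F)) :=
  lineMap g '' S

theorem famMap_one (S : Set (Submodule F (Fin 3 → F))) : famMap (1 : SU 3 F 5) S = S := by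
  rw [famMap, show lineMap (1 : SU 3 F 5) = id from funext H14.U35.lineMap_one, Set.image_id]

theorem famMap_mul (g h : SU 3 F 5) (S : Set (Submodule F (Fin 3 → F))) :
    famMap (g * h) S = famMap g (famMap h S) := by
  rw [famMap, famMap, famMap, Set.image_image]
  exact Set.image_congr fun L _ => H14.U35.lineMap_mul g h L

/-- The matrices with a partner in the lattice stabiliser. -/
def liftable (I : F) : Subgroup (SU 3 F 5) where
  carrier := {g | ∃ k : hsPoint, Compat famMap X (setLines I) (g, k)}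
  one_mem' := ⟨1, fun j => ⟨j, one_smul _ _, famMap_one _⟩⟩
  mul_mem' := fun {a b} ⟨k, hk⟩ ⟨l, hl⟩ => ⟨k * l, fun j => by
    obtain ⟨i, h1, h2⟩ := hl j
    obtain ⟨m, h3, h4⟩ := hk i
    exact ⟨m, by show (k * l) • X j = X m; rw [mul_smul, h1, h3],
      by show famMap (a * b) _ = _; rw [famMap_mul, h2, h4]⟩⟩
  inv_mem' := fun {a} ⟨k, hk⟩ => ⟨k⁻¹, fun j => by
    choose f h1 h2 using hk
    have hf : Function.Injective f := fun u v h =>
      X_injective (smul_left_cancel k (by rw [h1, h1, h]))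
    obtain ⟨i, rfl⟩ := Finite.surjective_of_injective hf j
    exact ⟨i, by show k⁻¹ • X (f i) = X i; rw [inv_smul_eq_iff, h1],
      by show famMap a⁻¹ _ = _; rw [← h2 i, ← famMap_mul, inv_mul_cancel, famMap_one]⟩⟩

variable (hF : Fintype.card F = 25) (hI : I * I = 2)
include hF hI

theorem gen_lift {g : ℕ} (hg : g < 3) : tp hF hI (H14.U35.ctr_lt hF hI hg) ∈ liftable I := by
  obtain ⟨k, hk⟩ := exists_gen hg
  set t := tp hF hI (H14.U35.ctr_lt hF hI hg) with ht
  have hlt : ∀ j : Fin 50, setTo g j < 50 := fun j => (H14.U35.gen_img hF hI hg j 0).1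
  have sub : ∀ j : Fin 50, famMap t (setLines I j) ⊆ setLines I ⟨setTo g j, hlt j⟩ := by
    rintro j _ ⟨_, ⟨i, rfl⟩, rfl⟩
    obtain ⟨_, l, hl⟩ := H14.U35.gen_img hF hI hg j i
    exact ⟨l, hl⟩
  set f : Fin 50 → Fin 50 := fun j => ⟨setTo g j, hlt j⟩ with hf
  have iter : ∀ n j, famMap (t ^ n) (setLines I j) ⊆ setLines I (f^[n] j) := by
    intro n
    induction n with
    | zero => intro j; rw [pow_zero, famMap_one]; exact subset_rfl
    | succ n ih =>
      intro j
      rw [pow_succ', famMap_mul, Function.iterate_succ_apply']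
      exact (Set.image_mono (ih j)).trans (sub _)
  have h5 : ∀ j, f^[5] j = j := by
    have hall : ∀ g : Fin 3, ∀ j : Fin 50,
        setTo g (setTo g (setTo g (setTo g (setTo g j)))) = j := by decide +kernel
    intro j
    refine Fin.ext ?_
    simp only [Function.iterate_succ_apply', Function.iterate_zero_apply, hf]
    exact hall ⟨g, hg⟩ j
  refine ⟨k, fun j => ⟨f j, hk j (f j) rfl, Set.Subset.antisymm (sub j) ?_⟩⟩
  have h4 := iter 4 (f j)
  rw [← Function.iterate_succ_apply, h5] at h4
  have := Set.image_mono (f := lineMap t) h4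
  calc setLines I (f j) = famMap (t ^ 5) (setLines I (f j)) := by
        rw [H14.U35.tp_pow_five hF hI, famMap_one]
    _ = famMap t (famMap (t ^ 4) (setLines I (f j))) := by rw [pow_succ', famMap_mul]
    _ ⊆ famMap t (setLines I j) := this

/-- All transvections with a given centre are liftable. -/
def AllTr (I : F) (v : Fin 3 → F) : Prop :=
  ∀ c : F, c + c ^ 5 = 0 → ∃ g ∈ liftable I, H14.UTrans.IsTr v c g

theorem allTr_of_one {v : Fin 3 → F} (hv : hermForm 3 F 5 v v = 0) {c₀ : F} (h0 : c₀ ≠ 0)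
    (htr : c₀ + c₀ ^ 5 = 0) {g : SU 3 F 5} (hg : g ∈ liftable I) (ht : H14.UTrans.IsTr v c₀ g) :
    AllTr I v := by
  intro c hc
  have h5 := H14.U35.five_eq_zero hF
  have key : ∀ k : ℕ, H14.UTrans.IsTr v ((k : F) * c₀) (g ^ k) := by
    intro k
    induction k with
    | zero => rw [pow_zero, Nat.cast_zero, zero_mul]; exact H14.UTrans.isTr_one v
    | succ k ih =>
      rw [pow_succ, Nat.cast_succ, add_mul, one_mul]
      exact ih.mul (H14.U35.card_eq_sq hF) hv ht
  obtain ⟨a, ha, hea⟩ := H14.U35.el_surjective h5 hI hF (c / c₀)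
  obtain ⟨k, hk⟩ : ∃ k : ℕ, (k : F) = c / c₀ := by
    refine ⟨a, ?_⟩
    have hfix : (c / c₀) ^ 5 = c / c₀ := by
      rw [div_pow, show c ^ 5 = -c by linear_combination hc,
        show c₀ ^ 5 = -c₀ by linear_combination htr, neg_div_neg_eq]
    rw [← hea, ← H14.U35.el_fconj h5 hI] at hfix
    have := H14.U35.el_injOn h5 hI (by
      show a % 5 + 5 * (4 * (a / 5) % 5) < 25
      omega) ha hfix
    have h0' : a / 5 = 0 := by
      have hh : a % 5 + 5 * (4 * (a / 5) % 5) = a := this
      omega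
    rw [← hea, H14.U35.el, h0', Nat.cast_zero, zero_mul, add_zero]
  refine ⟨g ^ k, pow_mem hg k, ?_⟩
  have := key k
  rwa [hk, div_mul_cancel₀ _ h0] at this

open H14.U35 in
theorem pt_mem : ∀ {i : ℕ}, i < 126 → AllTr I (enc I (pt i)) := by
  intro i
  induction i using Nat.strong_induction_on with
  | _ i ih =>
    intro hi
    have h5 := five_eq_zero hF
    have h := H15.allBlocks_eq_true pt_ok hi
    simp only [ptOk, Bool.and_eq_true, Bool.or_eq_true, Nat.beq_eq, Nat.blt, Nat.ble_eq,
      Nat.succ_le_iff, Bool.not_eq_true', ← Bool.not_eq_true] at h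
    rcases h.2 with rfl | ⟨⟨⟨⟨hp, hg⟩, hl⟩, hl25⟩, he⟩
    · have h0 := gen_lift hF hI (show 0 < 3 by norm_num)
      refine U35.allTr_of_one hF hI (isotropic_enc hF hI (pt_isotropic hF hI hi)) (I_ne_zero hF hI)
        (I_trace hF hI) h0 ?_
      show unitaryTransvection 3 5 (enc I (H14.U35.pt (genPts.getD 0 0))) I = _
      rw [genPts_ok.2.2]
    · have hA := gen_lift hF hI hg
      obtain ⟨B, hB, hBt⟩ := ih _ hp (by omega) I (I_trace hF hI)
      have hc := congrArg (enc I) he
      rw [tN_enc h5 hI, enc_smulN h5 hI] at hc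
      set l := el I (Nat.mod (edge i) 32) with hldef
      have hl0 : l ≠ 0 := el_ne_zero hF hI hl25 hl
      have h24 : l ^ 24 = 1 := by
        have h := FiniteField.pow_card_sub_one_eq_one l hl0
        rwa [hF] at h
      exact U35.allTr_of_one hF hI (isotropic_enc hF hI (pt_isotropic hF hI hi))
        (mul_ne_zero (I_ne_zero hF hI) (pow_ne_zero _ hl0))
        (by linear_combination l ^ 6 * I_trace hF hI + l ^ 6 * I ^ 5 * h24)
        (mul_mem (mul_mem hA hB) (inv_mem hA))
        (hBt.conj (card_eq_sq hF) (tp hF hI (ctr_lt hF hI hg)) hc)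

open H14.U35 in
theorem liftable_eq_top : liftable I = ⊤ := by
  rw [eq_top_iff, ← H3.su_closure_eq_top (card_eq_sq hF) (by norm_num) (by norm_num),
    Subgroup.closure_le]
  rintro A ⟨v, c, hv, hA⟩
  have h5 := five_eq_zero hF
  rcases eq_or_ne v 0 with rfl | hv0
  · rw [show A = 1 from H3.SU_ext (by rw [hA]; simp [unitaryTransvection])]
    exact one_mem _
  have hc : c + c ^ 5 = 0 := H3.trace_zero_of_transvection_preserves (card_eq_sq hF) hv0 hv
    (hA ▸ H3.mem_SU_iff.1 A.2)
  obtain ⟨n, hn, rfl⟩ := exists_code25 hF hI v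
  have hn0 : n ≠ 0 := fun h => hv0 (by
    subst h
    funext i
    show el I (dig (code25 0) i) = 0
    rw [show code25 0 = 0 from rfl, dig_eq]
    simp [el])
  rw [hermForm_enc h5 hI, el_eq_zero h5 hI (hermN_lt _ _)] at hv
  have h := H15.allBlocks_eq_true look_ok hn
  simp only [lookOk, Bool.and_eq_true, Bool.or_eq_true, Nat.beq_eq, Nat.blt, Nat.ble_eq,
    Nat.succ_le_iff, Bool.not_eq_true', ← Bool.not_eq_true] at h
  obtain ⟨hi, he⟩ := (h.resolve_left (by simp [hn0, hv]))
  have hen : enc I (code25 n) = el I (Nat.mod (H15.slot 12 lookData n) 32) •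
      enc I (H14.U35.pt (Nat.div (H15.slot 12 lookData n) 32)) :=
    (congrArg (enc I) he).trans (enc_smulN h5 hI _ _)
  set l := el I (Nat.mod (H15.slot 12 lookData n) 32) with hl
  have hl0 : l ≠ 0 := fun h0 => hv0 (by rw [hen, h0, zero_smul])
  have h24 : l ^ 24 = 1 := by
    have h := FiniteField.pow_card_sub_one_eq_one l hl0
    rwa [hF] at h
  obtain ⟨g, hg, hgt⟩ := U35.pt_mem hF hI hi (c * l ^ 6) (by
    linear_combination l ^ 6 * hc + l ^ 6 * c ^ 5 * h24)
  have hA' : H14.UTrans.IsTr (enc I (code25 n)) c A := hA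
  rw [hen] at hA'
  rw [(hA'.smul (card_eq_sq hF)).eq hgt]
  exact hg

theorem exists_moved : ∃ (g : SU 3 F 5) (j : Fin 50), famMap g (setLines I j) ≠ setLines I j := by
  by_contra h
  push Not at h
  refine H14.U35.setFix_ne_top hF hI (eq_top_iff.2 fun g _ => ⟨1, fun j L hL => ?_, rfl⟩)
  rw [Equiv.Perm.one_apply, ← h g j]
  exact ⟨L, hL, rfl⟩

end

theorem card_psu35 (F : Type) [Field F] [Fintype F] (hF : Fintype.card F = 25) :
    Nat.card (PSU 3 F 5) = 126000 := by
  have hsq := H14.U35.card_eq_sq hF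
  have h := H3.card_PSU hsq (n := 3) (by norm_num)
  have h2 := H3.card_SU hsq (n := 3) (by norm_num)
  rw [H14.U35.card_su hF] at h2
  rw [← h2] at h
  norm_num at h
  omega

theorem card_point : Nat.card hsPoint = 126000 := by
  have h := H14.card_stab_mul (MulAction.stabilizer ↥Co0 bV ⊓ MulAction.stabilizer ↥Co0 bA) b352 _
    orbit_352.1
  rw [orbit_352.2.1] at h
  have hc : Nat.card ↥(MulAction.stabilizer ↥Co0 bV ⊓ MulAction.stabilizer ↥Co0 bA) = 44352000 :=
    H14.HSGraph.card_hsGrp
  rw [hc] at h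
  have e : (MulAction.stabilizer ↥Co0 bV ⊓ MulAction.stabilizer ↥Co0 bA) ⊓
      MulAction.stabilizer ↥Co0 b352 = hsPoint := by
    ext g
    simp only [hsPoint, stab3, Subgroup.mem_inf, MulAction.mem_stabilizer_iff]
    constructor
    · rintro ⟨⟨h1, h2⟩, h3⟩
      exact ⟨⟨fixes_bW ⟨MulAction.mem_stabilizer_iff.2 h1, MulAction.mem_stabilizer_iff.2 h2⟩, h1⟩, h3⟩
    · rintro ⟨⟨h1, h2⟩, h3⟩
      refine ⟨⟨h2, ?_⟩, h3⟩
      have hA : bA = -bV - bW := by rw [bW_eq]; abel
      rw [hA, co0_smul_sub, co0_smul_neg, h1, h2]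
  rw [e] at h
  omega

/-- The stabiliser of one of the 352 vectors is `PSU(3, 5)`. -/
theorem point_iso {v w x : ↥leechLattice} (hv : sqNorm (v : GolayPt → ℤ) = 48)
    (hw : sqNorm (w : GolayPt → ℤ) = 48) (hvw : dotInt (v : GolayPt → ℤ) (w : GolayPt → ℤ) = -32)
    (hx : x ∈ set352 v w) (F : Type) [Field F] [Fintype F] (hF : Fintype.card F = 25) :
    Nonempty (↥(MulAction.stabilizer ↥Co0 v ⊓ MulAction.stabilizer ↥Co0 w ⊓
      MulAction.stabilizer ↥Co0 x) ≃* PSU 3 F 5) := by
  haveI : Finite hsPoint := Nat.finite_of_card_ne_zero (by rw [card_point]; norm_num)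
  obtain ⟨I, hI'⟩ := (FiniteField.isSquare_two_iff (F := F)).2 (by rw [hF]; decide)
  have hI := hI'.symm
  obtain ⟨e⟩ := actIso (G := hsPoint) famMap (H14.U35.card_eq_sq hF) (by norm_num) (by norm_num)
    famMap_one famMap_mul X (setLines I) X_injective
    (fun g => (liftable_eq_top hF hI).symm ▸ Subgroup.mem_top g : ∀ g, g ∈ liftable I)
    (exists_moved hF hI) (by rw [card_point, card_psu35 F hF])
  obtain ⟨g, g1, g2, g3⟩ := exists_red352 hv hw hvw hx
  exact ⟨(H14.conjEquiv g (fun k => by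
    have := stab3_conj g v w x k
    rwa [g1, g2, g3] at this)).trans e⟩

end Cfsg.Agent.H15.U35
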